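import Mathlib
import Cfsg.Agent.TcData.SF22c3.Rep0

set_option autoImplicit false
set_option Elab.async false
set_option maxRecDepth 100000
set_option linter.all false

namespace Cfsg.Agent.TcData.SF22c3

open Cfsg.Spor Cfsg.Agent.Lib.TcFacts Cfsg.Agent.Lib.TcBits Cfsg.Agent.Lib.TcPres Cfsg.Spor.Fi22 Cfsg.Agent.Lib.SchurDefs3

theorem e_3_s14 : chkW (extra3.getD 3 1) 14 = true := by decide +kernel

theorem e_3_s15 : chkW (extra3.getD 3 1) 15 = true := by decide +kernel

theorem e_3_s16 : chkW (extra3.getD 3 1) 16 = true := by decide +kernel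

theorem e_3_s17 : chkW (extra3.getD 3 1) 17 = true := by decide +kernel

theorem e_4_s0 : chkW (extra3.getD 4 1) 0 = true := by decide +kernel

theorem e_4_s1 : chkW (extra3.getD 4 1) 1 = true := by decide +kernel

theorem e_4_s2 : chkW (extra3.getD 4 1) 2 = true := by decide +kernel

theorem e_4_s3 : chkW (extra3.getD 4 1) 3 = true := by decide +kernel

theorem e_4_s4 : chkW (extra3.getD 4 1) 4 = true := by decide +kernel

theorem e_4_s5 : chkW (extra3.getD 4 1) 5 = true := by decide +kernel

theorem e_4_s6 : chkW (extra3.getD 4 1) 6 = true := by decide +kernel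

theorem e_4_s7 : chkW (extra3.getD 4 1) 7 = true := by decide +kernel

theorem e_4_s8 : chkW (extra3.getD 4 1) 8 = true := by decide +kernel

theorem e_4_s9 : chkW (extra3.getD 4 1) 9 = true := by decide +kernel

theorem e_4_s10 : chkW (extra3.getD 4 1) 10 = true := by decide +kernel

theorem e_4_s11 : chkW (extra3.getD 4 1) 11 = true := by decide +kernel

theorem e_4_s12 : chkW (extra3.getD 4 1) 12 = true := by decide +kernel

theorem e_4_s13 : chkW (extra3.getD 4 1) 13 = true := by decide +kernel

theorem e_4_s14 : chkW (extra3.getD 4 1) 14 = true := by decide +kernel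

theorem e_4_s15 : chkW (extra3.getD 4 1) 15 = true := by decide +kernel

theorem e_4_s16 : chkW (extra3.getD 4 1) 16 = true := by decide +kernel

theorem e_4_s17 : chkW (extra3.getD 4 1) 17 = true := by decide +kernel

theorem e_5_s0 : chkW (extra3.getD 5 1) 0 = true := by decide +kernel

theorem e_5_s1 : chkW (extra3.getD 5 1) 1 = true := by decide +kernel

theorem e_5_s2 : chkW (extra3.getD 5 1) 2 = true := by decide +kernel

theorem e_5_s3 : chkW (extra3.getD 5 1) 3 = true := by decide +kernel

theorem e_5_s4 : chkW (extra3.getD 5 1) 4 = true := by decide +kernel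

theorem e_5_s5 : chkW (extra3.getD 5 1) 5 = true := by decide +kernel

theorem e_5_s6 : chkW (extra3.getD 5 1) 6 = true := by decide +kernel

theorem e_5_s7 : chkW (extra3.getD 5 1) 7 = true := by decide +kernel

theorem e_5_s8 : chkW (extra3.getD 5 1) 8 = true := by decide +kernel

theorem e_5_s9 : chkW (extra3.getD 5 1) 9 = true := by decide +kernel

theorem e_5_s10 : chkW (extra3.getD 5 1) 10 = true := by decide +kernel

theorem e_5_s11 : chkW (extra3.getD 5 1) 11 = true := by decide +kernel

theorem e_5_s12 : chkW (extra3.getD 5 1) 12 = true := by decide +kernel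

theorem e_5_s13 : chkW (extra3.getD 5 1) 13 = true := by decide +kernel

theorem e_5_s14 : chkW (extra3.getD 5 1) 14 = true := by decide +kernel

theorem e_5_s15 : chkW (extra3.getD 5 1) 15 = true := by decide +kernel

theorem e_5_s16 : chkW (extra3.getD 5 1) 16 = true := by decide +kernel

end Cfsg.Agent.TcData.SF22c3
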