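import Mathlib
import Cfsg.Agent.TcData.SF22c3.Rep0

set_option autoImplicit false
set_option Elab.async false
set_option maxRecDepth 100000
set_option linter.all false

namespace Cfsg.Agent.TcData.SF22c3

open Cfsg.Spor Cfsg.Agent.Lib.TcFacts Cfsg.Agent.Lib.TcBits Cfsg.Agent.Lib.TcPres Cfsg.Spor.Fi22 Cfsg.Agent.Lib.SchurDefs3

theorem e_11_s17 : chkW (extra3.getD 11 1) 17 = true := by decide +kernel

end Cfsg.Agent.TcData.SF22c3
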