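import Mathlib
import Cfsg.Agent.Lib.ClassD36
import Cfsg.Agent.TcData.SF22c3.Rel0
import Cfsg.Agent.TcData.SF22c3.Rel1
import Cfsg.Agent.TcData.SF22c3.Rel2
import Cfsg.Agent.TcData.SF22c3.Rel3
import Cfsg.Agent.TcData.SF22c3.Rel4
import Cfsg.Agent.TcData.SF22c3.Rel5
import Cfsg.Agent.TcData.SF22c3.Rel6

set_option autoImplicit false
set_option Elab.async false
set_option maxRecDepth 100000
set_option linter.all false

namespace Cfsg.Agent.TcData.SF22c3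

open Cfsg.Spor Cfsg.Agent.Lib.TcFacts Cfsg.Agent.Lib.TcBits Cfsg.Agent.Lib.TcPres Cfsg.Spor.Fi22 Cfsg.Agent.Lib.SchurDefs3

theorem e_0 : ∀ j, j < 18 → chkW (extra3.getD 0 1) j = true := by
  intro j hj
  interval_cases j
  exacts [e_0_s0, e_0_s1, e_0_s2, e_0_s3, e_0_s4, e_0_s5, e_0_s6, e_0_s7, e_0_s8, e_0_s9, e_0_s10, e_0_s11, e_0_s12, e_0_s13, e_0_s14, e_0_s15, e_0_s16, e_0_s17]

theorem e_1 : ∀ j, j < 18 → chkW (extra3.getD 1 1) j = true := by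
  intro j hj
  interval_cases j
  exacts [e_1_s0, e_1_s1, e_1_s2, e_1_s3, e_1_s4, e_1_s5, e_1_s6, e_1_s7, e_1_s8, e_1_s9, e_1_s10, e_1_s11, e_1_s12, e_1_s13, e_1_s14, e_1_s15, e_1_s16, e_1_s17]

theorem e_2 : ∀ j, j < 18 → chkW (extra3.getD 2 1) j = true := by
  intro j hj
  interval_cases j
  exacts [e_2_s0, e_2_s1, e_2_s2, e_2_s3, e_2_s4, e_2_s5, e_2_s6, e_2_s7, e_2_s8, e_2_s9, e_2_s10, e_2_s11, e_2_s12, e_2_s13, e_2_s14, e_2_s15, e_2_s16, e_2_s17]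

theorem e_3 : ∀ j, j < 18 → chkW (extra3.getD 3 1) j = true := by
  intro j hj
  interval_cases j
  exacts [e_3_s0, e_3_s1, e_3_s2, e_3_s3, e_3_s4, e_3_s5, e_3_s6, e_3_s7, e_3_s8, e_3_s9, e_3_s10, e_3_s11, e_3_s12, e_3_s13, e_3_s14, e_3_s15, e_3_s16, e_3_s17]

theorem e_4 : ∀ j, j < 18 → chkW (extra3.getD 4 1) j = true := by
  intro j hj
  interval_cases j
  exacts [e_4_s0, e_4_s1, e_4_s2, e_4_s3, e_4_s4, e_4_s5, e_4_s6, e_4_s7, e_4_s8, e_4_s9, e_4_s10, e_4_s11, e_4_s12, e_4_s13, e_4_s14, e_4_s15, e_4_s16, e_4_s17]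

theorem e_5 : ∀ j, j < 18 → chkW (extra3.getD 5 1) j = true := by
  intro j hj
  interval_cases j
  exacts [e_5_s0, e_5_s1, e_5_s2, e_5_s3, e_5_s4, e_5_s5, e_5_s6, e_5_s7, e_5_s8, e_5_s9, e_5_s10, e_5_s11, e_5_s12, e_5_s13, e_5_s14, e_5_s15, e_5_s16, e_5_s17]

theorem e_6 : ∀ j, j < 18 → chkW (extra3.getD 6 1) j = true := by
  intro j hj
  interval_cases j
  exacts [e_6_s0, e_6_s1, e_6_s2, e_6_s3, e_6_s4, e_6_s5, e_6_s6, e_6_s7, e_6_s8, e_6_s9, e_6_s10, e_6_s11, e_6_s12, e_6_s13, e_6_s14, e_6_s15, e_6_s16, e_6_s17]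

theorem e_7 : ∀ j, j < 18 → chkW (extra3.getD 7 1) j = true := by
  intro j hj
  interval_cases j
  exacts [e_7_s0, e_7_s1, e_7_s2, e_7_s3, e_7_s4, e_7_s5, e_7_s6, e_7_s7, e_7_s8, e_7_s9, e_7_s10, e_7_s11, e_7_s12, e_7_s13, e_7_s14, e_7_s15, e_7_s16, e_7_s17]

theorem e_8 : ∀ j, j < 18 → chkW (extra3.getD 8 1) j = true := by
  intro j hj
  interval_cases j
  exacts [e_8_s0, e_8_s1, e_8_s2, e_8_s3, e_8_s4, e_8_s5, e_8_s6, e_8_s7, e_8_s8, e_8_s9, e_8_s10, e_8_s11, e_8_s12, e_8_s13, e_8_s14, e_8_s15, e_8_s16, e_8_s17]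

theorem e_9 : ∀ j, j < 18 → chkW (extra3.getD 9 1) j = true := by
  intro j hj
  interval_cases j
  exacts [e_9_s0, e_9_s1, e_9_s2, e_9_s3, e_9_s4, e_9_s5, e_9_s6, e_9_s7, e_9_s8, e_9_s9, e_9_s10, e_9_s11, e_9_s12, e_9_s13, e_9_s14, e_9_s15, e_9_s16, e_9_s17]

theorem e_10 : ∀ j, j < 18 → chkW (extra3.getD 10 1) j = true := by
  intro j hj
  interval_cases j
  exacts [e_10_s0, e_10_s1, e_10_s2, e_10_s3, e_10_s4, e_10_s5, e_10_s6, e_10_s7, e_10_s8, e_10_s9, e_10_s10, e_10_s11, e_10_s12, e_10_s13, e_10_s14, e_10_s15, e_10_s16, e_10_s17]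

theorem e_11 : ∀ j, j < 18 → chkW (extra3.getD 11 1) j = true := by
  intro j hj
  interval_cases j
  exacts [e_11_s0, e_11_s1, e_11_s2, e_11_s3, e_11_s4, e_11_s5, e_11_s6, e_11_s7, e_11_s8, e_11_s9, e_11_s10, e_11_s11, e_11_s12, e_11_s13, e_11_s14, e_11_s15, e_11_s16, e_11_s17]


theorem hc : ∀ x ∈ nodesL, ∀ y ∈ nodesL, ∀ j, j < 18 →
    chkW ((FreeGroup.of x * FreeGroup.of y) ^ coxLabel edges x y) j = true := by
  intro x hx y hy
  simp only [nodesL, List.mem_cons, List.not_mem_nil, or_false] at hx hy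
  rcases hx with rfl | rfl | rfl | rfl | rfl | rfl | rfl | rfl | rfl <;> rcases hy with rfl | rfl | rfl | rfl | rfl | rfl | rfl | rfl | rfl
  exacts [c_a_a,
    c_a_b,
    c_a_c,
    c_a_d,
    c_a_e,
    c_a_f,
    c_a_g,
    c_a_h,
    c_a_i,
    c_b_a,
    c_b_b,
    c_b_c,
    c_b_d,
    c_b_e,
    c_b_f,
    c_b_g,
    c_b_h,
    c_b_i,
    c_c_a,
    c_c_b,
    c_c_c,
    c_c_d,
    c_c_e,
    c_c_f,
    c_c_g,
    c_c_h,
    c_c_i,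
    c_d_a,
    c_d_b,
    c_d_c,
    c_d_d,
    c_d_e,
    c_d_f,
    c_d_g,
    c_d_h,
    c_d_i,
    c_e_a,
    c_e_b,
    c_e_c,
    c_e_d,
    c_e_e,
    c_e_f,
    c_e_g,
    c_e_h,
    c_e_i,
    c_f_a,
    c_f_b,
    c_f_c,
    c_f_d,
    c_f_e,
    c_f_f,
    c_f_g,
    c_f_h,
    c_f_i,
    c_g_a,
    c_g_b,
    c_g_c,
    c_g_d,
    c_g_e,
    c_g_f,
    c_g_g,
    c_g_h,
    c_g_i,
    c_h_a,
    c_h_b,
    c_h_c,
    c_h_d,
    c_h_e,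
    c_h_f,
    c_h_g,
    c_h_h,
    c_h_i,
    c_i_a,
    c_i_b,
    c_i_c,
    c_i_d,
    c_i_e,
    c_i_f,
    c_i_g,
    c_i_h,
    c_i_i]

theorem he0 : ∀ i, i < extra3.length → ∀ j, j < 18 → chkW (extra3.getD i 1) j = true := by
  intro i hi
  have hl : extra3.length = 12 := rfl
  rw [hl] at hi
  interval_cases i
  exacts [e_0, e_1, e_2, e_3, e_4, e_5, e_6, e_7, e_8, e_9, e_10, e_11]

theorem he : ∀ r ∈ extra3, ∀ j, j < 18 → chkW r j = true := by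
  intro r hr
  obtain ⟨i, hi, rfl⟩ := List.getElem_of_mem hr
  have := he0 i hi
  rwa [List.getD_eq_getElem _ _ hi] at this

theorem hR : ∀ r ∈ R3, FreeGroup.lift (genPerm pr) r = 1 :=
  lift_of_checks hnodes hv (fun x hx y hy => of_chkW (hc x hx y hy)) (fun r hr => of_chkW (he r hr))

/-- The representation. -/
noncomputable def Phi : PresentedGroup R3 →* Equiv.Perm ℕ := repOf R3 pr hR

/-- The spider word does not act trivially. -/
theorem spider_ne : (PresentedGroup.mk R3 spider : PresentedGroup R3) ≠ 1 := by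
  intro h
  have h1 : Phi (PresentedGroup.mk R3 spider) 2 = 0 := by
    have hb : wordApply (sgnProg pr) spider.toWord (2 ^ 0) = 2 ^ 2 := by decide +kernel
    exact Cfsg.Agent.Lib.ClassD36.phi_of_check hR hv hb
  rw [h, map_one] at h1
  simp at h1

end Cfsg.Agent.TcData.SF22c3
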